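import Cfsg.Agent.Lib.Helper39.SLblk.K45
import Cfsg.Agent.Lib.Helper36.BNSt.G10
import Cfsg.Agent.Lib.Helper17.ChevCent
import Cfsg.Agent.Lib.Helper17.StPres
import Cfsg.Agent.S2154
import Cfsg.Agent.S2311
import Cfsg.Agent.S2326
import Cfsg.Agent.S2327
import Cfsg.Agent.S1027
import Cfsg.Agent.S1048
import Cfsg.Agent.S0165
import Cfsg.Agent.Lib.Helper80.Inflation
import Cfsg.Agent.Lib.Helper15.CharTools

/-!
# Blocks of the Chevalley groups in the defining characteristic (helper39)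
-/

set_option autoImplicit false

namespace Cfsg.Agent.Lib.Helper39.SLblk

open Cfsg Cfsg.Lie

variable {F : Type*} [Field F] [Fintype F]

namespace Chev

theorem isPGroup_U (p : ℕ) [Fact p.Prime] [CharP F p] (D : ChevalleyDatum)
    (hD : D ∈ [chevG2, chevB2, chevD4, chevF4, chevE6, chevE7, chevE8]) :
    IsPGroup p ↥(D.posUnipotent F) := by
  obtain ⟨n, -, hn⟩ := FiniteField.card F p
  have h27 := Cfsg.Agent.S1027.result (F := F) D hD
  rw [hn, ← pow_mul] at h27
  exact IsPGroup.of_card h27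

theorem urad_le_U (D : ChevalleyDatum) (J : Set ℕ) :
    D.unipotentRadical F J ≤ D.posUnipotent F := by
  apply Subgroup.closure_mono
  rintro g ⟨r, t, hr, -, hg⟩
  exact ⟨r, t, hr, hg⟩

/-- a proper subgroup of a finite `p`-group is properly contained in its normaliser. -/
theorem eq_of_normalizer_le {G : Type*} [Group G] [Finite G] (p : ℕ) [Fact p.Prime]
    (V D₀ : Subgroup G) (hV : IsPGroup p V) (hle : D₀ ≤ V)
    (h : V ⊓ Subgroup.normalizer (D₀ : Set G) ≤ D₀) : V ≤ D₀ := by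
  by_contra hcon
  have hnil : Group.IsNilpotent ↥V := hV.isNilpotent
  have hnc := Group.normalizerCondition_of_isNilpotent (G := ↥V)
  have hlt : D₀.subgroupOf V < ⊤ := by
    rw [lt_top_iff_ne_top]
    intro htop
    rw [Subgroup.subgroupOf_eq_top] at htop
    exact hcon htop
  have h2 := hnc _ hlt
  obtain ⟨v, hv1, hv2⟩ := SetLike.exists_of_lt h2
  apply hv2
  rw [Subgroup.mem_subgroupOf]
  apply h
  refine Subgroup.mem_inf.2 ⟨v.2, ?_⟩
  rw [Subgroup.mem_normalizer_iff] at hv1 ⊢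
  intro x
  constructor
  · intro hx
    have := (hv1 ⟨x, hle hx⟩).1 (by rw [Subgroup.mem_subgroupOf]; exact hx)
    rw [Subgroup.mem_subgroupOf] at this
    exact this
  · intro hx
    have hxV : x ∈ V := by
      have h3 : (v : G)⁻¹ * ((v : G) * x * (v : G)⁻¹) * (v : G) ∈ V :=
        V.mul_mem (V.mul_mem (V.inv_mem v.2) (hle hx)) v.2
      have e : (v : G)⁻¹ * ((v : G) * x * (v : G)⁻¹) * (v : G) = x := by group
      rwa [e] at h3
    have := (hv1 ⟨x, hxV⟩).2 (by rw [Subgroup.mem_subgroupOf]; exact hx)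
    rw [Subgroup.mem_subgroupOf] at this
    exact this

end Chev

theorem radHyp_chev (p : ℕ) [Fact p.Prime] [CharP F p] (D : ChevalleyDatum)
    (hD : D ∈ [chevG2, chevB2, chevD4, chevF4, chevE6, chevE7, chevE8]) :
    RadHyp p ↥(D.group F) := by
  classical
  intro x D₀ hx hD₀ hne hcomm hrad
  have hpU := Chev.isPGroup_U (F := F) p D hD
  -- Borel-Tits
  obtain ⟨g, hg, J, ⟨j₀, hj₀, hj₀J⟩, hN, hU⟩ := Cfsg.Agent.S2154.result (F := F) p D hD
    (D₀.map (D.group F).subtype) (by
      rintro _ ⟨y, -, rfl⟩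
      exact y.2) (hD₀.map _) (by
      intro h
      apply hne
      rw [Subgroup.map_eq_bot_iff_of_injective _ (Subgroup.subtype_injective _)] at h
      exact h)
  have h48 := Cfsg.Agent.S1048.result (F := F) D hD J
  set VV : Subgroup (GL D.Idx F) := (D.unipotentRadical F J).map (MulAut.conj g).toMonoidHom with hVV
  set V : Subgroup ↥(D.group F) := VV.subgroupOf (D.group F) with hV
  have hVp : IsPGroup p V := by
    apply IsPGroup.comap_subtype
    exact (hpU.to_le (Chev.urad_le_U D J)).map _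
  have hD₀V : D₀ ≤ V := by
    intro d hd
    rw [hV, Subgroup.mem_subgroupOf]
    exact hU ⟨d, hd, rfl⟩
  -- elements of the normaliser
  have hnorm : ∀ n ∈ Subgroup.normalizer (D₀ : Set ↥(D.group F)),
      (n : GL D.Idx F) ∈ (D.parabolicSubgroup F J).map (MulAut.conj g).toMonoidHom := by
    intro n hn
    apply hN
    refine Subgroup.mem_inf.2 ⟨?_, n.2⟩
    rw [Subgroup.mem_normalizer_iff] at hn ⊢
    intro y
    constructor
    · rintro ⟨d, hd, rfl⟩
      exact ⟨n * d * n⁻¹, (hn d).1 hd, rfl⟩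
    · rintro ⟨d, hd, hdy⟩
      have hy : y = ((n⁻¹ * d * n : ↥(D.group F)) : GL D.Idx F) := by
        have : (d : GL D.Idx F) = (n : GL D.Idx F) * y * (n : GL D.Idx F)⁻¹ := hdy
        push_cast
        rw [this]
        group
      rw [hy]
      refine ⟨n⁻¹ * d * n, ?_, rfl⟩
      apply (hn _).2
      have e : n * (n⁻¹ * d * n) * n⁻¹ = d := by group
      rw [e]
      exact hd
  have hPV : ∀ y ∈ (D.parabolicSubgroup F J).map (MulAut.conj g).toMonoidHom, ∀ v ∈ VV,
      y * v * y⁻¹ ∈ VV := by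
    rintro _ ⟨y, hy, rfl⟩ _ ⟨v, hv, rfl⟩
    refine ⟨y * v * y⁻¹, ?_, ?_⟩
    · have := h48.1 hy
      rw [Subgroup.mem_normalizer_iff] at this
      exact (this v).1 hv
    · simp only [MulEquiv.coe_toMonoidHom, MulAut.conj_apply]
      group
  have hA : V ⊓ Subgroup.normalizer (D₀ : Set ↥(D.group F)) ≤ D₀ := by
    apply hrad
    · exact hVp.to_le inf_le_left
    · exact inf_le_right
    · intro n hn a ha
      rw [Subgroup.mem_inf] at ha
      refine Subgroup.mem_inf.2 ⟨?_, (Subgroup.normalizer (D₀ : Set ↥(D.group F))).mul_mem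
        ((Subgroup.normalizer (D₀ : Set ↥(D.group F))).mul_mem hn ha.2)
        ((Subgroup.normalizer (D₀ : Set ↥(D.group F))).inv_mem hn)⟩
      have ha1 := ha.1
      rw [hV, Subgroup.mem_subgroupOf] at ha1 ⊢
      exact hPV _ (hnorm n hn) _ ha1
  have hVD : V ≤ D₀ := Chev.eq_of_normalizer_le p V D₀ hVp hD₀V hA
  -- `x` normalises `D₀`
  have hxN : x ∈ Subgroup.normalizer (D₀ : Set ↥(D.group F)) := by
    rw [Subgroup.mem_normalizer_iff]
    intro d
    constructor
    · intro hd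
      have : x * d * x⁻¹ = d := by rw [← hcomm d hd]; group
      rw [this]; exact hd
    · intro hd
      have h1 := hcomm _ hd
      have : x * d * x⁻¹ = d := by
        have h2 : x * d * x⁻¹ * x = x * (x * d * x⁻¹) := h1
        have h3 : x * d = x * (x * d * x⁻¹) := by rw [← h2]; group
        exact (mul_left_cancel h3).symm
      rw [this] at hd; exact hd
  obtain ⟨y, hyP, hyx⟩ := hnorm x hxN
  have hyx' : g * y * g⁻¹ = (x : GL D.Idx F) := by simpa using hyx
  have hUG : D.unipotentRadical F J ≤ D.group F :=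
    le_trans (Chev.urad_le_U D J) (Cfsg.Agent.Lib.Helper18.base_of_mem F hD).U_le_group
  have hyU : y ∈ D.posUnipotent F := by
    apply Cfsg.Agent.Lib.Helper17.cent_urad_le_U hD J hj₀ hj₀J
    refine Subgroup.mem_inf.2 ⟨hyP, ?_⟩
    rw [Subgroup.mem_centralizer_iff]
    intro u hu
    have hmem : g * u * g⁻¹ ∈ D.group F :=
      (D.group F).mul_mem ((D.group F).mul_mem hg (hUG hu)) ((D.group F).inv_mem hg)
    have hv : (⟨g * u * g⁻¹, hmem⟩ : ↥(D.group F)) ∈ V := by
      rw [hV, Subgroup.mem_subgroupOf]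
      exact ⟨u, hu, by simp⟩
    have h1 := congrArg Subtype.val (hcomm _ (hVD hv))
    have h2 : g * u * g⁻¹ * (g * y * g⁻¹) = g * y * g⁻¹ * (g * u * g⁻¹) := by
      rw [hyx']; exact h1
    have h3 : g * (u * y) * g⁻¹ = g * (y * u) * g⁻¹ := by
      calc g * (u * y) * g⁻¹ = g * u * g⁻¹ * (g * y * g⁻¹) := by group
        _ = g * y * g⁻¹ * (g * u * g⁻¹) := h2
        _ = g * (y * u) * g⁻¹ := by group
    exact mul_left_cancel (mul_right_cancel h3)
  -- so `x` is a `p`-element
  obtain ⟨k, hk⟩ := hpU ⟨y, hyU⟩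
  have hyk : y ^ p ^ k = 1 := by simpa using congrArg Subtype.val hk
  have hxk : x ^ p ^ k = 1 := by
    apply Subtype.ext
    push_cast
    rw [← hyx', conj_pow, hyk]
    group
  have hdvd := orderOf_dvd_of_pow_eq_one hxk
  obtain ⟨l, -, hl⟩ := (Nat.dvd_prime_pow Fact.out).1 hdvd
  have hl0 : l = 0 := by
    by_contra h0
    apply hx
    rw [hl]
    exact dvd_pow_self p h0
  rw [hl0, pow_zero, orderOf_eq_one_iff] at hl
  rw [hl]
  exact Subgroup.one_mem _

theorem unique_chev (p : ℕ) [Fact p.Prime] [CharP F p] (D : ChevalleyDatum)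
    (hD : D ∈ [chevG2, chevB2, chevD4, chevF4, chevE6, chevE7, chevE8])
    (χ : ↥(D.group F) → ℂ) (hχ : IsIrrCharacter ↥(D.group F) χ)
    (hdeg : ∃ d : ℕ, χ 1 = (d : ℂ) ∧ p ^ (Nat.card ↥(D.group F)).factorization p ∣ d) :
    χ = D.steinbergCharacter F := by
  classical
  let X := Cfsg.Agent.Lib.Helper18.bnData_of_mem F hD
  obtain ⟨n, ρ, hirr, rfl⟩ := hχ
  obtain ⟨d, hd, hdvd⟩ := hdeg
  obtain ⟨Q, hQ⟩ := Cfsg.Agent.S2326.result (F := F) p D hD
  have hSt : Cfsg.IsIrrCharacter ↥(D.group F) (Cfsg.Agent.Lib.Helper36.BNSt.stChar X.P) := by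
    rw [← Cfsg.Agent.Lib.Helper36.BNSt.steinbergCharacter_eq X]
    exact Cfsg.Agent.S2311.result D hD
  have hfin : Module.finrank ℂ (Fin n → ℂ) = d := by
    have h1 := Representation.char_one ρ
    rw [hd] at h1
    exact_mod_cast h1.symm
  rw [Cfsg.Agent.Lib.Helper36.BNSt.steinbergCharacter_eq X]
  apply Cfsg.Agent.Lib.Helper36.BNSt.chev_character_eq X hSt ρ hirr
  intro u hu hne
  haveI := hirr
  have huQ : u ∈ (Q : Subgroup ↥(D.group F)) := by rw [hQ]; exact hu
  obtain ⟨k, hk⟩ := (IsPGroup.iff_orderOf.1 Q.2) ⟨u, huQ⟩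
  have hk' : orderOf u = p ^ k := (Subgroup.orderOf_mk u huQ).symm.trans hk
  have hpu : p ∣ orderOf u := by
    rw [hk']
    apply dvd_pow_self
    rintro rfl
    rw [pow_zero, orderOf_eq_one_iff] at hk'
    exact hne hk'
  exact Cfsg.Agent.S0165.result ρ p ((Nat.card ↥(D.group F)).factorization p) Fact.out
    (Nat.ordProj_dvd _ _) (Nat.pow_succ_factorization_not_dvd Nat.card_pos.ne' Fact.out)
    (by rw [hfin]; exact hdvd) u hpu

theorem card_pow_chev (p : ℕ) [Fact p.Prime] [CharP F p] (D : ChevalleyDatum)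
    (hD : D ∈ [chevG2, chevB2, chevD4, chevF4, chevE6, chevE7, chevE8]) :
    Fintype.card F ^ (D.nroots / 2) = p ^ (Nat.card ↥(D.group F)).factorization p := by
  obtain ⟨Q, hQ⟩ := Cfsg.Agent.S2326.result (F := F) p D hD
  have h1 := Q.card_eq_multiplicity
  rw [hQ] at h1
  rw [← h1, ← Cfsg.Agent.S1027.result (F := F) D hD]
  exact (Nat.card_congr (Subgroup.subgroupOfEquivOfLe
    (Cfsg.Agent.Lib.Helper18.base_of_mem F hD).U_le_group).toEquiv).symm

theorem card_defect_zero_chev (p : ℕ) [Fact p.Prime] [CharP F p] (D : ChevalleyDatum)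
    (hD : D ∈ [chevG2, chevB2, chevD4, chevF4, chevE6, chevE7, chevE8]) :
    Nat.card {χ : IrrCharacter ↥(D.group F) //
      ¬ p ∣ Nat.card ↥(D.group F) / charDegree (χ : ↥(D.group F) → ℂ)} = 1 := by
  classical
  have hpp : p.Prime := Fact.out
  have hG0 : Nat.card ↥(D.group F) ≠ 0 := (Nat.card_pos (α := ↥(D.group F))).ne'
  rw [Nat.card_eq_one_iff_unique]
  constructor
  · constructor
    intro a b
    apply Subtype.ext; apply Subtype.ext
    have key : ∀ c : {χ : IrrCharacter ↥(D.group F) //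
        ¬ p ∣ Nat.card ↥(D.group F) / charDegree (χ : ↥(D.group F) → ℂ)},
        (c.1 : ↥(D.group F) → ℂ) = D.steinbergCharacter F := by
      intro c
      apply unique_chev p D hD _ c.1.2
      refine ⟨charDegree (c.1 : ↥(D.group F) → ℂ),
        Cfsg.Agent.Lib.Helper80.char_one_eq_charDegree (Cfsg.Agent.Lib.Helper15.irr_char c.1.2), ?_⟩
      have h1 := (K1.not_dvd_div_iff hpp hG0
        (Cfsg.Agent.Lib.Helper78.irr_charDegree_dvd_card c.1)).1 c.2
      have hd0 : charDegree (c.1 : ↥(D.group F) → ℂ) ≠ 0 := by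
        intro h0
        have := Cfsg.Agent.Lib.Helper78.irr_charDegree_dvd_card c.1
        rw [h0, zero_dvd_iff] at this
        exact hG0 this
      exact (hpp.pow_dvd_iff_le_factorization hd0).2 h1
    rw [key a, key b]
  · refine ⟨⟨⟨D.steinbergCharacter F, Cfsg.Agent.S2311.result D hD⟩, ?_⟩⟩
    have h1 : charDegree (D.steinbergCharacter F) = p ^ (Nat.card ↥(D.group F)).factorization p := by
      have h2 := Cfsg.Agent.Lib.Helper80.char_one_eq_charDegree
        (Cfsg.Agent.Lib.Helper15.irr_char (Cfsg.Agent.S2311.result (F := F) D hD))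
      rw [Cfsg.Agent.S2327.result D hD] at h2
      rw [← card_pow_chev p D hD]
      exact_mod_cast h2.symm
    show ¬ p ∣ Nat.card ↥(D.group F) / charDegree (D.steinbergCharacter F)
    rw [h1]
    exact Nat.not_dvd_ordCompl hpp hG0

theorem card_blocks_chev (p : ℕ) [Fact p.Prime] [CharP F p] (D : ChevalleyDatum)
    (hD : D ∈ [chevG2, chevB2, chevD4, chevF4, chevE6, chevE7, chevE8])
    (M : Ideal AlgInt) (hM : IsPModular p M) :
    Nat.card {B : Set (IrrCharacter ↥(D.group F)) // IsPBlock M B} = 2 := by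
  have hc : Subgroup.center ↥(D.group F) = ⊥ := Cfsg.Agent.Lib.Helper17.center_group hD
  have hpp : p.Prime := Fact.out
  rw [card_blocks p M hM (radHyp_chev p D hD) ?_ ?_, card_defect_zero_chev p D hD, hc,
    Subgroup.card_bot]
  · have h1 := card_pow_chev (F := F) p D hD
    have h2 : 1 ≤ D.nroots / 2 := by
      simp only [List.mem_cons, List.not_mem_nil, or_false] at hD
      rcases hD with rfl | rfl | rfl | rfl | rfl | rfl | rfl <;> decide
    have h3 : p ∣ Fintype.card F ^ (D.nroots / 2) := by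
      obtain ⟨n, -, hn⟩ := FiniteField.card F p
      rw [hn]
      exact dvd_pow (dvd_pow_self p n.ne_zero) (by omega)
    rw [h1] at h3
    exact dvd_trans h3 (Nat.ordProj_dvd _ _)
  · intro z hz
    rw [hc, Subgroup.mem_bot] at hz
    rw [hz, orderOf_one]
    exact hpp.one_lt.ne' ∘ Nat.dvd_one.1

end Cfsg.Agent.Lib.Helper39.SLblk
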